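import Mathlib
import Cfsg.Agent.Classical.Semisimple.ClassCount
import Cfsg.Agent.Classical.Symp.Card

/-!
The characteristic polynomials of symplectic matrices: `X ^ n Q (X + 1 / X)` for monic `Q` of degree `n`.
-/

set_option autoImplicit false

namespace CfsgLib.Spec53

open Polynomial Matrix

variable {F : Type*} [Field F] {n : ℕ}

/-- A self-adjoint matrix with given characteristic polynomial. -/
theorem exists_selfAdjoint_charpoly {Q : F[X]} (hmon : Q.Monic) (hdeg : Q.natDegree = n) :
    ∃ M H : Matrix (Fin n) (Fin n) F,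
      M.charpoly = Q ∧ Hᵀ = H ∧ H.det ≠ 0 ∧ Mᵀ * H = H * M := by
  classical
  subst hdeg
  rcases Nat.eq_zero_or_pos Q.natDegree with h0 | hpos
  · refine ⟨0, 1, ?_, Matrix.transpose_one, by simp, by simp⟩
    have hQ : Q = 1 := Polynomial.eq_one_of_monic_natDegree_zero hmon h0
    subst hQ
    simp [Matrix.charpoly_zero]
  set pb := AdjoinRoot.powerBasis' hmon with hpb
  let b : Module.Basis (Fin Q.natDegree) F (AdjoinRoot Q) :=
    pb.basis.reindex (finCongr (AdjoinRoot.powerBasis'_dim hmon))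
  set x : AdjoinRoot Q := pb.gen with hx
  let top : Fin Q.natDegree := ⟨Q.natDegree - 1, by omega⟩
  let lam : AdjoinRoot Q →ₗ[F] F := (Finsupp.lapply top).comp b.repr.toLinearMap
  set M := Algebra.leftMulMatrix b x with hM
  set H : Matrix (Fin Q.natDegree) (Fin Q.natDegree) F := Matrix.of fun i j => lam (b i * b j)
  refine ⟨M, H, ?_, ?_, ?_, ?_⟩
  · have h1 : M = Matrix.reindex (finCongr (AdjoinRoot.powerBasis'_dim hmon))
        (finCongr (AdjoinRoot.powerBasis'_dim hmon)) (Algebra.leftMulMatrix pb.basis x) := by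
      ext i j
      simp [hM, b, Algebra.leftMulMatrix_eq_repr_mul]
    rw [h1, Matrix.charpoly_reindex, hx, charpoly_leftMulMatrix, hpb]
    simp [AdjoinRoot.minpoly_root hmon.ne_zero, hmon.leadingCoeff]
  · ext i j; simp [H, mul_comm]
  · intro h0
    obtain ⟨v, hv0, hv⟩ := Matrix.exists_mulVec_eq_zero_iff.2 h0
    set w : AdjoinRoot Q := b.equivFun.symm v with hw
    have hlam : ∀ z, lam (z * w) = 0 := by
      intro z
      have h1 : ∀ i, lam (b i * w) = 0 := fun i => by
        have := congrFun hv i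
        simp only [Matrix.mulVec, dotProduct, H, Matrix.of_apply, Pi.zero_apply] at this
        rw [hw, Module.Basis.equivFun_symm_apply, Finset.mul_sum, map_sum]
        simpa [mul_smul_comm, mul_comm] using this
      rw [← b.sum_repr z, Finset.sum_mul, map_sum]
      exact Finset.sum_eq_zero fun i _ => by rw [smul_mul_assoc, map_smul, h1, smul_zero]
    apply hv0
    by_contra hne
    have hw0 : w ≠ 0 := fun h => hne (b.equivFun.symm.map_eq_zero_iff.1 h)
    set R := AdjoinRoot.modByMonicHom hmon w with hR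
    have hRmk : AdjoinRoot.mk Q R = w := AdjoinRoot.mk_leftInverse hmon w
    have hR0 : R ≠ 0 := fun h => hw0 (by rw [← hRmk, h, map_zero])
    have hRdeg : R.natDegree < Q.natDegree := by
      obtain ⟨P, hP⟩ := AdjoinRoot.mk_surjective w
      rw [hR, ← hP, AdjoinRoot.modByMonicHom_mk]
      refine natDegree_modByMonic_lt _ hmon ?_
      rintro rfl
      simp at hpos
    set T : F[X] := Polynomial.X ^ (Q.natDegree - 1 - R.natDegree) * R with hT
    have hTdeg : T.natDegree = Q.natDegree - 1 := by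
      rw [hT, natDegree_X_pow_mul _ hR0]; omega
    have h2 := hlam (AdjoinRoot.mk Q (Polynomial.X ^ (Q.natDegree - 1 - R.natDegree)))
    have h3 : ∀ P : F[X], lam (AdjoinRoot.mk Q P) = (P %ₘ Q).coeff (Q.natDegree - 1) := by
      intro P
      rw [← AdjoinRoot.modByMonicHom_mk hmon P]
      rfl
    rw [← hRmk, ← map_mul, ← hT, h3, modByMonic_eq_self_iff hmon |>.2 (degree_lt_degree (by omega)),
      hT, show Q.natDegree - 1 = R.natDegree + (Q.natDegree - 1 - R.natDegree) by omega] at h2
    rw [show R.natDegree + (Q.natDegree - 1 - R.natDegree) - R.natDegree =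
      Q.natDegree - 1 - R.natDegree by omega, coeff_X_pow_mul] at h2
    exact hR0 (leadingCoeff_eq_zero.1 h2)
  · ext i j
    have hcol : ∀ j, ∑ k, M k j • b k = x * b j := fun j => by
      simp only [hM, Algebra.leftMulMatrix_eq_repr_mul]
      exact b.sum_repr _
    have e1 : (Mᵀ * H) i j = lam (x * b i * b j) := by
      rw [← hcol i, Finset.sum_mul, map_sum, Matrix.mul_apply]
      exact Finset.sum_congr rfl fun k _ => by simp [H, smul_mul_assoc]
    have e2 : (H * M) i j = lam (b i * (x * b j)) := by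
      rw [← hcol j, Finset.mul_sum, map_sum, Matrix.mul_apply]
      exact Finset.sum_congr rfl fun k _ => by simp [H, mul_smul_comm, mul_comm]
    rw [e1, e2]
    congr 1
    ring

/-- A symplectic matrix with characteristic polynomial `X ^ n Q (X + 1 / X)`. -/
theorem exists_symplectic_eval_charpoly {Q : F[X]} (hmon : Q.Monic) (hdeg : Q.natDegree = n) :
    ∃ g : Matrix.symplecticGroup (Fin n) F, ∀ t : AlgebraicClosure F, t ≠ 0 →
      ((g : Matrix (Fin n ⊕ Fin n) (Fin n ⊕ Fin n) F).map
          (algebraMap F (AlgebraicClosure F))).charpoly.eval t =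
        t ^ n * (Q.map (algebraMap F (AlgebraicClosure F))).eval (t + t⁻¹) := by
  classical
  obtain ⟨M, H, hM, hHs, hH, hMH⟩ := exists_selfAdjoint_charpoly hmon hdeg
  have hHu : IsUnit H.det := Ne.isUnit hH
  have hMH' : M * H⁻¹ = H⁻¹ * Mᵀ := by
    calc M * H⁻¹ = H⁻¹ * (H * M) * H⁻¹ := by
          rw [← Matrix.mul_assoc H⁻¹, Matrix.nonsing_inv_mul _ hHu, Matrix.one_mul]
      _ = H⁻¹ * Mᵀ := by
          rw [← hMH, Matrix.mul_assoc, Matrix.mul_assoc, Matrix.mul_nonsing_inv _ hHu,
            Matrix.mul_one]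
  have hHis : (H⁻¹)ᵀ = H⁻¹ := by rw [Matrix.transpose_nonsing_inv, hHs]
  refine ⟨⟨fromBlocks M (-H⁻¹) H 0, ?_⟩, fun t ht => ?_⟩
  · rw [SymplecticGroup.mem_iff, Matrix.J, fromBlocks_transpose, fromBlocks_multiply,
      fromBlocks_multiply]
    simp [hHs, hHis, hMH', Matrix.nonsing_inv_mul _ hHu, Matrix.mul_nonsing_inv _ hHu,
      Matrix.neg_mul, Matrix.mul_neg]
  · set f := algebraMap F (AlgebraicClosure F)
    have hone : (1 : Matrix (Fin n) (Fin n) F).map f = 1 := Matrix.map_one f (map_zero f) (map_one f)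
    have hinv : (H⁻¹).map f * H.map f = 1 := by
      rw [← Matrix.map_mul, Matrix.nonsing_inv_mul _ hHu, hone]
    rw [Matrix.eval_charpoly, ← hM, ← Matrix.charpoly_map, Matrix.eval_charpoly]
    show (Matrix.scalar (Fin n ⊕ Fin n) t - (fromBlocks M (-H⁻¹) H 0).map f).det = _
    have hneg : (-H⁻¹).map f = -(H⁻¹.map f) := by ext i j; simp
    rw [fromBlocks_map, hneg, Matrix.map_zero _ (map_zero f), Matrix.scalar_apply,
      show (Matrix.diagonal fun _ : Fin n ⊕ Fin n => t) =
        fromBlocks (t • (1 : Matrix (Fin n) (Fin n) (AlgebraicClosure F))) 0 0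
          (t • (1 : Matrix (Fin n) (Fin n) (AlgebraicClosure F))) by
        rw [Matrix.smul_one_eq_diagonal, fromBlocks_diagonal]
        congr 1
        funext i; cases i <;> rfl]
    haveI : Invertible (t • (1 : Matrix (Fin n) (Fin n) (AlgebraicClosure F))) :=
      ⟨t⁻¹ • 1, by simp [smul_smul, ht], by simp [smul_smul, ht]⟩
    have hinvOf : ⅟(t • (1 : Matrix (Fin n) (Fin n) (AlgebraicClosure F))) = t⁻¹ • 1 :=
      invOf_eq_right_inv (by simp [smul_smul, ht])
    have hsub : fromBlocks (t • (1 : Matrix (Fin n) (Fin n) (AlgebraicClosure F))) 0 0 (t • 1) -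
        fromBlocks (M.map f) (-(H⁻¹.map f)) (H.map f) 0 =
        fromBlocks (t • 1 - M.map f) (H⁻¹.map f) (-(H.map f)) (t • 1) := by
      ext i j; rcases i with i | i <;> rcases j with j | j <;> simp
    rw [hsub, Matrix.det_fromBlocks₂₂, hinvOf, Matrix.det_smul, Matrix.det_one, mul_one,
      Fintype.card_fin]
    congr 2
    rw [Matrix.mul_smul, Matrix.mul_one, Matrix.smul_mul, Matrix.mul_neg, hinv, Matrix.scalar_apply,
      ← Matrix.smul_one_eq_diagonal, add_smul, smul_neg, sub_neg_eq_add]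
    abel

variable (n) in
/-- The characteristic polynomial of a symplectic matrix is self-reciprocal. -/
theorem coeff_charpoly_symm (g : Matrix.symplecticGroup (Fin n) F) {k : ℕ} (hk : k ≤ 2 * n) :
    (g : Matrix (Fin n ⊕ Fin n) (Fin n ⊕ Fin n) F).charpoly.coeff k =
      (g : Matrix (Fin n ⊕ Fin n) (Fin n ⊕ Fin n) F).charpoly.coeff (2 * n - k) := by
  set A := (g : Matrix (Fin n ⊕ Fin n) (Fin n ⊕ Fin n) F) with hAdef
  have hd : A.det = 1 := SymplecticGroup.det_eq_one g.2
  have hu : IsUnit A := (Matrix.isUnit_iff_isUnit_det A).2 (by rw [hd]; exact isUnit_one)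
  have h1 : A⁻¹.charpoly = A.charpolyRev := by
    rw [Matrix.charpoly_inv A hu, hd, Ring.inverse_one, map_one, mul_one, Fintype.card_sum,
      Fintype.card_fin, (Even.add_self n).neg_one_pow, one_mul]
  have hJ : IsUnit (Matrix.J (Fin n) F) :=
    (Matrix.isUnit_iff_isUnit_det _).2 (Matrix.isUnit_det_J _ _)
  have h2 : A⁻¹ = (hJ.unit : Matrix (Fin n ⊕ Fin n) (Fin n ⊕ Fin n) F) * Aᵀ *
      (hJ.unit⁻¹ : (Matrix (Fin n ⊕ Fin n) (Fin n ⊕ Fin n) F)ˣ) := by
    refine Matrix.inv_eq_right_inv ?_
    rw [IsUnit.unit_spec, ← mul_assoc, ← mul_assoc, hAdef, SymplecticGroup.mem_iff.1 g.2]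
    exact hJ.mul_val_inv
  have hrev : A.charpoly.reverse = A.charpoly := by
    rw [Matrix.reverse_charpoly, ← h1, h2, Matrix.coe_units_inv, Matrix.charpoly_units_conj,
      Matrix.charpoly_transpose]
  conv_lhs => rw [← hrev]
  rw [Polynomial.coeff_reverse, Matrix.charpoly_natDegree_eq_dim, Fintype.card_sum,
    Fintype.card_fin, show n + n = 2 * n by omega, Polynomial.revAt_le hk]

/-- Classes of semisimple elements with the characteristic polynomials `X ^ n Q (X + 1 / X)`. -/
theorem exists_classes_of_polys [Fintype F] (p : ℕ) [Fact p.Prime] [CharP F p] :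
    ∃ Φ : {P : F[X] // P.Monic ∧ P.natDegree = n} →
        {c : ConjClasses (Matrix.symplecticGroup (Fin n) F) //
          ∃ g, ConjClasses.mk g = c ∧ (orderOf g).Coprime p},
      Function.Injective Φ ∧ ∀ P, ∀ g : Matrix.symplecticGroup (Fin n) F,
        ConjClasses.mk g = (Φ P).1 → ∀ t : AlgebraicClosure F, t ≠ 0 →
          ((g : Matrix (Fin n ⊕ Fin n) (Fin n ⊕ Fin n) F).map
              (algebraMap F (AlgebraicClosure F))).charpoly.eval t =
            t ^ n * (P.1.map (algebraMap F (AlgebraicClosure F))).eval (t + t⁻¹) := by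
  classical
  choose g hg using fun P : {P : F[X] // P.Monic ∧ P.natDegree = n} =>
    exists_symplectic_eval_charpoly P.2.1 P.2.2
  set φ : Matrix.symplecticGroup (Fin n) F →* GL (Fin n ⊕ Fin n) F :=
    (Submonoid.subtype _).toHomUnits
  have hφ : Function.Injective φ := fun a b h => Subtype.ext (congrArg Units.val h)
  choose N hN1 hN2 using fun P =>
    CfsgLib.Classical.Semisimple.exists_pow_card_pow_coprime p (φ (g P))
  have hN1' : ∀ P, (orderOf (g P ^ Fintype.card F ^ N P)).Coprime p := fun P => by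
    rw [← orderOf_injective φ hφ, map_pow]; exact hN1 P
  refine ⟨fun P => ⟨ConjClasses.mk (g P ^ Fintype.card F ^ N P), _, rfl, hN1' P⟩,
    fun P Q h => ?_, fun P g' hg' t ht => ?_⟩
  have h1 := ConjClasses.mk_eq_mk_iff_isConj.1 (congrArg Subtype.val h)
  obtain ⟨w, hw⟩ := isConj_iff.1 (MonoidHom.map_isConj φ h1)
  have h2 : ((g P : Matrix.symplecticGroup (Fin n) F) : Matrix (Fin n ⊕ Fin n) (Fin n ⊕ Fin n) F).charpoly
      = ((g Q : Matrix.symplecticGroup (Fin n) F) : Matrix (Fin n ⊕ Fin n) (Fin n ⊕ Fin n) F).charpoly := by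
    refine (hN2 P).symm.trans (Eq.trans ?_ (hN2 Q))
    rw [← map_pow, ← map_pow, ← hw, Units.val_mul, Units.val_mul, Matrix.coe_units_inv,
      Matrix.charpoly_units_conj]
  refine Subtype.ext (Polynomial.map_injective (algebraMap F (AlgebraicClosure F))
    (RingHom.injective _) (Polynomial.funext fun s => ?_))
  obtain ⟨t, ht⟩ := IsAlgClosed.exists_root
    (Polynomial.X ^ 2 - Polynomial.C s * Polynomial.X + 1 : (AlgebraicClosure F)[X])
    (by rw [show (Polynomial.X ^ 2 - Polynomial.C s * Polynomial.X + 1 : (AlgebraicClosure F)[X]) =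
        Polynomial.C 1 * Polynomial.X ^ 2 + Polynomial.C (-s) * Polynomial.X + Polynomial.C 1 by
          simp; ring, degree_quadratic one_ne_zero]
        decide)
  have ht' : t ^ 2 - s * t + 1 = 0 := by simpa using ht
  have ht0 : t ≠ 0 := by
    rintro rfl
    simp at ht'
  have hs : t + t⁻¹ = s := by
    field_simp
    linear_combination ht'
  have h3 := hg P t ht0
  rw [Matrix.charpoly_map, h2, ← Matrix.charpoly_map, hg Q t ht0, hs] at h3
  exact (mul_left_cancel₀ (pow_ne_zero n ht0) h3).symm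

  obtain ⟨w, hw⟩ := isConj_iff.1 (MonoidHom.map_isConj φ (ConjClasses.mk_eq_mk_iff_isConj.1 hg'.symm))
  have h2 : (g' : Matrix (Fin n ⊕ Fin n) (Fin n ⊕ Fin n) F).charpoly =
      ((g P : Matrix.symplecticGroup (Fin n) F) : Matrix (Fin n ⊕ Fin n) (Fin n ⊕ Fin n) F).charpoly := by
    show ((φ g' : GL (Fin n ⊕ Fin n) F) : Matrix (Fin n ⊕ Fin n) (Fin n ⊕ Fin n) F).charpoly = _
    rw [← hw, Units.val_mul, Units.val_mul, Matrix.coe_units_inv, Matrix.charpoly_units_conj, map_pow]
    exact hN2 P
  rw [Matrix.charpoly_map, h2, ← Matrix.charpoly_map]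
  exact hg P t ht

/-- The number of classes of semisimple elements of `Sp₂ₙ(q)` is `q ^ n`, given that classes are
determined by characteristic polynomials. -/
theorem card_semisimple_classes_sp [Fintype F] (p : ℕ) [Fact p.Prime] [CharP F p]
    (hconj : ∀ g h : Matrix.symplecticGroup (Fin n) F, (orderOf g).Coprime p →
      (orderOf h).Coprime p → (g : Matrix (Fin n ⊕ Fin n) (Fin n ⊕ Fin n) F).charpoly =
        (h : Matrix (Fin n ⊕ Fin n) (Fin n ⊕ Fin n) F).charpoly → IsConj g h) :
    Nat.card {c : ConjClasses (Matrix.symplecticGroup (Fin n) F) //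
      ∃ g, ConjClasses.mk g = c ∧ (orderOf g).Coprime p} = Fintype.card F ^ n := by
  classical
  let T := {c : ConjClasses (Matrix.symplecticGroup (Fin n) F) //
      ∃ g, ConjClasses.mk g = c ∧ (orderOf g).Coprime p}
  set cp := fun c : T => ((Classical.choose c.2 : Matrix.symplecticGroup (Fin n) F) :
    Matrix (Fin n ⊕ Fin n) (Fin n ⊕ Fin n) F).charpoly with hcp
  have hcpinj : Function.Injective cp := fun c d h => by
    obtain ⟨h1, h2⟩ := Classical.choose_spec c.2
    obtain ⟨h3, h4⟩ := Classical.choose_spec d.2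
    exact Subtype.ext (h1.symm.trans ((ConjClasses.mk_eq_mk_iff_isConj.2 (hconj _ _ h2 h4 h)).trans h3))
  refine le_antisymm ?_ ?_
  · have e : Nat.card (Fin n → F) = Fintype.card F ^ n := by simp
    rw [← e]
    refine Nat.card_le_card_of_injective (fun c : T => fun i : Fin n => (cp c).coeff (n + i))
      fun c d h => hcpinj ?_
    have hhigh : ∀ k, n ≤ k → k < 2 * n → (cp c).coeff k = (cp d).coeff k := fun k h1 h2 => by
      have := congrFun h ⟨k - n, by omega⟩
      simpa [Nat.add_sub_cancel' h1] using this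
    have hdeg : ∀ c : T, (cp c).natDegree = 2 * n := fun c => by
      rw [hcp, Matrix.charpoly_natDegree_eq_dim]; simp; omega
    have htop : ∀ c : T, (cp c).coeff (2 * n) = 1 := fun c => by
      rw [← hdeg c]; exact Matrix.charpoly_monic _
    refine Polynomial.ext fun k => ?_
    rcases Nat.lt_or_ge (2 * n) k with hk | hk
    · rw [coeff_eq_zero_of_natDegree_lt (by rw [hdeg]; exact hk),
        coeff_eq_zero_of_natDegree_lt (by rw [hdeg]; exact hk)]
    rcases Nat.lt_or_ge k n with hkn | hkn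
    · have e1 : ∀ c : T, (cp c).coeff k = (cp c).coeff (2 * n - k) :=
        fun c => coeff_charpoly_symm n _ hk
      rw [e1, e1]
      rcases Nat.eq_zero_or_pos k with rfl | hk0
      · rw [Nat.sub_zero, htop, htop]
      · exact hhigh _ (by omega) (by omega)
    rcases hk.eq_or_lt with rfl | hlt
    · rw [htop, htop]
    · exact hhigh k hkn hlt
  · let e : {P : F[X] // P.Monic ∧ P.natDegree = n} ≃ (Fin n → F) :=
      (Polynomial.monicEquivDegreeLT n).trans (Polynomial.degreeLTEquiv F n).toEquiv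
    have he : Nat.card {P : F[X] // P.Monic ∧ P.natDegree = n} = Fintype.card F ^ n := by
      rw [Nat.card_congr e]; simp
    rw [← he]
    haveI : Finite {P : F[X] // P.Monic ∧ P.natDegree = n} := Finite.of_equiv _ e.symm
    obtain ⟨Φ, hΦ, -⟩ := exists_classes_of_polys (n := n) p (F := F)
    exact Nat.card_le_card_of_injective Φ hΦ

/-- Every element of order prime to `p` has characteristic polynomial `X ^ n Q (X + 1 / X)`. -/
theorem exists_poly_of_semisimple [Fintype F] (p : ℕ) [Fact p.Prime] [CharP F p]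
    (hconj : ∀ g h : Matrix.symplecticGroup (Fin n) F, (orderOf g).Coprime p →
      (orderOf h).Coprime p → (g : Matrix (Fin n ⊕ Fin n) (Fin n ⊕ Fin n) F).charpoly =
        (h : Matrix (Fin n ⊕ Fin n) (Fin n ⊕ Fin n) F).charpoly → IsConj g h)
    (g : Matrix.symplecticGroup (Fin n) F) (hg : (orderOf g).Coprime p) :
    ∃ Q : F[X], Q.Monic ∧ Q.natDegree = n ∧ ∀ t : AlgebraicClosure F, t ≠ 0 →
      ((g : Matrix (Fin n ⊕ Fin n) (Fin n ⊕ Fin n) F).map
          (algebraMap F (AlgebraicClosure F))).charpoly.eval t =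
        t ^ n * (Q.map (algebraMap F (AlgebraicClosure F))).eval (t + t⁻¹) := by
  obtain ⟨Φ, hΦ, hΦ2⟩ := exists_classes_of_polys (n := n) p (F := F)
  let e : {P : F[X] // P.Monic ∧ P.natDegree = n} ≃ (Fin n → F) :=
    (Polynomial.monicEquivDegreeLT n).trans (Polynomial.degreeLTEquiv F n).toEquiv
  haveI : Finite {P : F[X] // P.Monic ∧ P.natDegree = n} := Finite.of_equiv _ e.symm
  have hb := hΦ.bijective_of_nat_card_le (by
    rw [card_semisimple_classes_sp p hconj, Nat.card_congr e]; simp)
  obtain ⟨P, hP⟩ := hb.2 ⟨ConjClasses.mk g, g, rfl, hg⟩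
  exact ⟨P.1, P.2.1, P.2.2, hΦ2 P g (congrArg Subtype.val hP).symm⟩

end CfsgLib.Spec53
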