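import Mathlib
import Cfsg.Agent.Spec53.SpCharpoly
import Cfsg.Agent.Spec53.CubicTori
import Cfsg.Agent.Spec53.IsometryEigen

/-!
The classes of elements of odd prime order `r` in `Sp₂ₙ(q)`.
-/

set_option autoImplicit false

namespace CfsgLib.Spec53

open Polynomial UniqueFactorizationMonoid

variable {F : Type*} [Field F] [Fintype F] {r : ℕ} [hr : Fact r.Prime] {n k η : ℕ}

local notation "L" => AlgebraicClosure F
local notation "qF" => Fintype.card F
local notation "ι" => algebraMap F (AlgebraicClosure F)

/-- The values `z + 1 / z` at the primitive `r`-th roots of unity. -/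
noncomputable def traceVals (F : Type*) [Field F] (r : ℕ) : Finset (AlgebraicClosure F) :=
  open scoped _root_.Classical in (primitiveRoots r (AlgebraicClosure F)).image fun z => z + z⁻¹

/-- Their minimal polynomials. -/
noncomputable def traceOrbits (F : Type*) [Field F] (r : ℕ) : Finset F[X] :=
  open scoped _root_.Classical in (traceVals F r).image (minpoly F)

theorem card_coprime_prime (hrF : (r : F) ≠ 0) : Nat.Coprime qF r := by
  obtain ⟨p, hp⟩ := CharP.exists F
  haveI := hp
  obtain ⟨e, hprime, he⟩ := FiniteField.card F p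
  rw [he]
  exact Nat.Coprime.pow_left _ ((hprime.coprime_iff_not_dvd).2 fun h =>
    hrF ((CharP.cast_eq_zero_iff F p r).2 h))

omit [Fintype F] hr in
theorem add_inv_eq_iff {z w : L} (hz : z ≠ 0) (hw : w ≠ 0) :
    z + z⁻¹ = w + w⁻¹ ↔ z = w ∨ z = w⁻¹ := by
  constructor
  · intro h
    have h1 : (z - w) * (z * w - 1) = 0 := by
      field_simp at h
      linear_combination h
    rcases mul_eq_zero.1 h1 with h1 | h1
    · exact Or.inl (sub_eq_zero.1 h1)
    · exact Or.inr (eq_inv_of_mul_eq_one_left (sub_eq_zero.1 h1))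
  · rintro (rfl | rfl)
    · rfl
    · rw [inv_inv, add_comm]

omit [Fintype F] in
theorem mem_traceVals {s : L} :
    s ∈ traceVals F r ↔ ∃ z : L, IsPrimitiveRoot z r ∧ z + z⁻¹ = s := by
  classical
  simp [traceVals, mem_primitiveRoots hr.out.pos]

omit [Fintype F] in
theorem two_notMem_traceVals : (2 : L) ∉ traceVals F r := by
  intro h
  obtain ⟨z, hz, hzs⟩ := mem_traceVals.1 h
  have hz0 : z ≠ 0 := hz.ne_zero hr.out.ne_zero
  have h1 : z = 1 ∨ z = 1⁻¹ := (add_inv_eq_iff hz0 one_ne_zero).1 (by rw [hzs]; norm_num)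
  exact hz.ne_one hr.out.one_lt (by rcases h1 with h1 | h1 <;> simpa using h1)

omit [Fintype F] in
theorem card_traceVals (hrF : (r : F) ≠ 0) (hr2 : r ≠ 2) :
    2 * (traceVals F r).card = r - 1 := by
  classical
  haveI : NeZero (r : L) := ⟨by rw [← map_natCast ι]; exact (map_ne_zero ι).2 hrF⟩
  obtain ⟨z, hz⟩ := HasEnoughRootsOfUnity.exists_primitiveRoot L r
  have hcard : (primitiveRoots r L).card = r - 1 := by
    rw [hz.card_primitiveRoots, Nat.totient_prime hr.out]
  rw [← hcard, Finset.card_eq_sum_card_image (fun z : L => z + z⁻¹) (primitiveRoots r L),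
    Finset.sum_const_nat (m := 2), mul_comm, traceVals]
  intro s hs
  obtain ⟨w, hw, rfl⟩ := Finset.mem_image.1 hs
  rw [mem_primitiveRoots hr.out.pos] at hw
  have hw0 : w ≠ 0 := hw.ne_zero hr.out.ne_zero
  rw [Finset.card_eq_two]
  refine ⟨w, w⁻¹, fun h => ?_, ?_⟩
  · have h2 : w ^ 2 = 1 := by rw [pow_two]; nth_rw 2 [h]; exact mul_inv_cancel₀ hw0
    have := (hw.pow_eq_one_iff_dvd 2).1 h2
    exact hr2 ((Nat.prime_dvd_prime_iff_eq hr.out Nat.prime_two).1 this)
  · ext v
    simp only [Finset.mem_filter, mem_primitiveRoots hr.out.pos, Finset.mem_insert,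
      Finset.mem_singleton]
    constructor
    · rintro ⟨hv, hvw⟩
      exact (add_inv_eq_iff (hv.ne_zero hr.out.ne_zero) hw0).1 hvw
    · rintro (rfl | rfl)
      · exact ⟨hw, rfl⟩
      · exact ⟨hw.inv, by rw [inv_inv, add_comm]⟩

/-- The minimal polynomial of `z + 1 / z` has degree `η` and its roots are the values in one orbit. -/
theorem minpoly_traceVal (hrF : (r : F) ≠ 0) (hr2 : r ≠ 2) (hk : k = orderOf (qF : ZMod r))
    (hη : (Odd k ∧ η = k) ∨ (Even k ∧ 2 * η = k)) {s : L} (hs : s ∈ traceVals F r) :
    (minpoly F s).natDegree = η ∧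
      ∀ t : L, aeval t (minpoly F s) = 0 → t ∈ traceVals F r := by
  classical
  obtain ⟨z, hz, rfl⟩ := mem_traceVals.1 hs
  obtain ⟨p, hp⟩ := CharP.exists F
  haveI := hp
  obtain ⟨e, hprime, he⟩ := FiniteField.card F p
  haveI : Fact p.Prime := ⟨hprime⟩
  haveI : CharP L p := AlgebraicClosure.instCharP F
  haveI : NeZero r := ⟨hr.out.ne_zero⟩
  set σ := iterateFrobenius L p e
  have hσ : ∀ y, σ y = y ^ qF := fun y => by rw [iterateFrobenius_def, he]
  have hz0 : z ≠ 0 := hz.ne_zero hr.out.ne_zero
  have hk0 : 0 < k := by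
    rw [hk]
    exact orderOf_pos_iff.2 ((ZMod.unitOfCoprime qF (card_coprime_prime hrF)).isUnit.isOfFinOrder)
  have hη0 : 0 < η := by rcases hη with ⟨-, h⟩ | ⟨-, h⟩ <;> omega
  set sv : ℕ → L := fun j => z ^ (qF ^ j) + (z ^ (qF ^ j))⁻¹ with hsv
  have hs0 : sv 0 = z + z⁻¹ := by simp [hsv]
  have hstep : ∀ j, σ (sv j) = sv (j + 1) := fun j => by
    simp only [hsv]
    rw [map_add, map_inv₀, hσ, ← pow_mul, ← pow_succ]
  have hcast : ∀ a b : ℕ, z ^ a = z ^ b ↔ (a : ZMod r) = b := by
    intro a b
    rw [ZMod.natCast_eq_natCast_iff]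
    have hu : orderOf (Units.mk0 z hz0) = r := by
      rw [← orderOf_units]; exact hz.eq_orderOf.symm
    have h1 := pow_eq_pow_iff_modEq (x := Units.mk0 z hz0) (m := b) (n := a)
    rw [hu, Units.ext_iff, Units.val_pow_eq_pow_val, Units.val_pow_eq_pow_val] at h1
    exact h1
  have hcastinv : ∀ a b : ℕ, z ^ a = (z ^ b)⁻¹ ↔ (a : ZMod r) = -(b : ZMod r) := by
    intro a b
    rw [← mul_eq_one_iff_eq_inv₀ (pow_ne_zero _ hz0), ← pow_add, hz.pow_eq_one_iff_dvd,
      ← ZMod.natCast_eq_zero_iff, eq_neg_iff_add_eq_zero]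
    push_cast
    rfl
  have hqu : (qF : ZMod r) ≠ 0 := fun h0 => by
    have h1 := (ZMod.natCast_eq_zero_iff _ _).1 h0
    exact hr.out.ne_one (Nat.eq_one_of_dvd_coprimes (card_coprime_prime hrF) h1 dvd_rfl)
  have hwrap : sv η = sv 0 := by
    refine (add_inv_eq_iff (pow_ne_zero _ hz0) (pow_ne_zero _ hz0)).2 ?_
    rcases hη with ⟨-, h⟩ | ⟨-, h⟩
    · left
      rw [hcast, h, hk]
      push_cast
      rw [pow_orderOf_eq_one, pow_zero]
    · have h2 : (qF : ZMod r) ^ η * (qF : ZMod r) ^ η = 1 := by
        rw [← pow_add, ← two_mul, h, hk, pow_orderOf_eq_one]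
      rcases mul_self_eq_one_iff.1 h2 with h3 | h3
      · left; rw [hcast]; push_cast; rw [h3, pow_zero]
      · right; rw [hcastinv]; push_cast; rw [h3, pow_zero]
  have hinj : ∀ a b, a ≤ b → b < η → sv a = sv b → a = b := by
    intro a b hab hb h
    obtain ⟨c, rfl⟩ := Nat.exists_eq_add_of_le hab
    by_contra hne
    have hc : 0 < c := by omega
    have h1 := (add_inv_eq_iff (pow_ne_zero _ hz0) (pow_ne_zero _ hz0)).1 h
    rw [hcast, hcastinv] at h1
    have h2 : (qF : ZMod r) ^ c = 1 ∨ (qF : ZMod r) ^ c = -1 := by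
      rcases h1 with h1 | h1
      · left
        push_cast [pow_add] at h1
        exact mul_left_cancel₀ (pow_ne_zero a hqu) (by rw [mul_one]; exact h1.symm)
      · right
        push_cast [pow_add] at h1
        exact mul_left_cancel₀ (pow_ne_zero a hqu) (by linear_combination h1)
    have hd : k ∣ 2 * c := hk ▸ orderOf_dvd_of_pow_eq_one (by
      rw [mul_comm, pow_mul]; rcases h2 with h2 | h2 <;> rw [h2] <;> ring)
    rcases hη with ⟨ho, h'⟩ | ⟨-, h'⟩
    · have := Nat.le_of_dvd hc ((Nat.coprime_two_right.2 ho).dvd_of_dvd_mul_left hd)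
      omega
    · have := Nat.le_of_dvd (by omega) hd
      omega
  set A := (Finset.range η).image sv with hA
  have hAcard : A.card = η := by
    rw [hA, Finset.card_image_of_injOn, Finset.card_range]
    intro a ha b hb h
    rw [Finset.coe_range] at ha hb
    rcases le_total a b with hle | hle
    · exact hinj a b hle hb h
    · exact (hinj b a hle ha h.symm).symm
  have hAfix : A.image σ = A := by
    refine Finset.eq_of_subset_of_card_le (fun y hy => ?_) (by
      rw [Finset.card_image_of_injective _ σ.injective])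
    obtain ⟨x, hx, rfl⟩ := Finset.mem_image.1 hy
    obtain ⟨j, hj, rfl⟩ := Finset.mem_image.1 hx
    rw [hstep]
    refine Finset.mem_image.2 ?_
    rcases Nat.lt_or_ge (j + 1) η with h | h
    · exact ⟨j + 1, Finset.mem_range.2 h, rfl⟩
    · refine ⟨0, Finset.mem_range.2 hη0, ?_⟩
      rw [show j + 1 = η by have := Finset.mem_range.1 hj; omega, hwrap]
  set Φ : L[X] := ∏ y ∈ A, (X - C y) with hΦ
  have hΦfix : Φ.map σ = Φ := by
    rw [hΦ, Polynomial.map_prod]
    conv_rhs => rw [← hAfix, Finset.prod_image fun x _ y _ h => σ.injective h]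
    simp
  have hlift : Φ ∈ Polynomial.lifts ι := by
    rw [Polynomial.lifts_iff_coeff_lifts]
    intro i
    have h1 := congrArg (fun P : L[X] => P.coeff i) hΦfix
    simp only [Polynomial.coeff_map, hσ] at h1
    exact exists_algebraMap_of_pow_card h1
  obtain ⟨P, hP, hPdeg, hPmon⟩ := Polynomial.lifts_and_degree_eq_and_monic hlift
    (monic_prod_of_monic _ _ fun y _ => monic_X_sub_C y)
  have hPd : P.natDegree = η := by
    rw [natDegree_eq_of_degree_eq hPdeg, hΦ,
      natDegree_prod_of_monic _ _ (fun y _ => monic_X_sub_C y)]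
    simp [hAcard]
  have hroot : aeval (z + z⁻¹) P = 0 := by
    rw [aeval_def, ← eval_map, hP, hΦ, eval_prod]
    exact Finset.prod_eq_zero (i := sv 0) (Finset.mem_image.2 ⟨0, Finset.mem_range.2 hη0, rfl⟩)
      (by simp [hs0])
  set μ := minpoly F (z + z⁻¹) with hμ
  have hint : IsIntegral F (z + z⁻¹) := Algebra.IsIntegral.isIntegral _
  have hdvd : μ ∣ P := minpoly.dvd F _ hroot
  have hrootsA : ∀ j, aeval (sv j) μ = 0 := by
    intro j
    induction j with
    | zero => rw [hs0]; exact minpoly.aeval F _
    | succ j ih =>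
      rw [← hstep, aeval_def, ← eval_map]
      have hfix : (μ.map ι).map σ = μ.map ι := by
        ext i
        simp only [Polynomial.coeff_map, hσ, ← map_pow, FiniteField.pow_card]
      rw [← hfix, eval_map, eval₂_at_apply, eval_map, ← aeval_def, ih, map_zero]
  have hμ0 : μ.map ι ≠ 0 :=
    (Polynomial.map_ne_zero_iff (RingHom.injective _)).2 (minpoly.ne_zero hint)
  have hge : η ≤ μ.natDegree := by
    rw [← hAcard, ← Polynomial.natDegree_map (f := ι) (p := μ)]
    refine Polynomial.card_le_degree_of_subset_roots fun y hy => ?_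
    obtain ⟨j, -, rfl⟩ := Finset.mem_image.1 (show y ∈ (Finset.range η).image sv from hy)
    rw [mem_roots hμ0, IsRoot, eval_map, ← aeval_def]
    exact hrootsA j
  have hle : μ.natDegree ≤ η := hPd ▸ natDegree_le_of_dvd hdvd hPmon.ne_zero
  refine ⟨le_antisymm hle hge, fun t ht => ?_⟩
  have hPt : (P.map ι).eval t = 0 := by
    rw [eval_map, ← aeval_def]
    obtain ⟨c, hc⟩ := hdvd
    rw [hc, map_mul, ht, zero_mul]
  rw [hP, hΦ, eval_prod] at hPt
  obtain ⟨y, hy, hty⟩ := Finset.prod_eq_zero_iff.1 hPt
  obtain ⟨j, -, rfl⟩ := Finset.mem_image.1 hy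
  obtain rfl : t = sv j := by simpa [sub_eq_zero] using hty
  exact mem_traceVals.2 ⟨z ^ (qF ^ j),
    hz.pow_of_coprime _ (Nat.Coprime.pow_left _ (card_coprime_prime hrF)), rfl⟩

theorem traceOrbits_spec (hrF : (r : F) ≠ 0) (hr2 : r ≠ 2) (hk : k = orderOf (qF : ZMod r))
    (hη : (Odd k ∧ η = k) ∨ (Even k ∧ 2 * η = k)) :
    (∀ P ∈ traceOrbits F r, Irreducible P ∧ P.Monic ∧ P.natDegree = η ∧ P.eval 2 ≠ 0 ∧
      ∀ t : L, aeval t P = 0 → t ∈ traceVals F r) ∧
    2 * ((traceOrbits F r).card * η) = r - 1 := by
  classical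
  have hmem : ∀ P ∈ traceOrbits F r, ∃ s ∈ traceVals F r, minpoly F s = P := fun P hP => by
    simpa [traceOrbits] using hP
  refine ⟨fun P hP => ?_, ?_⟩
  · obtain ⟨s, hs, rfl⟩ := hmem P hP
    obtain ⟨hdeg, hroots⟩ := minpoly_traceVal hrF hr2 hk hη hs
    have hint : IsIntegral F s := Algebra.IsIntegral.isIntegral s
    refine ⟨minpoly.irreducible hint, minpoly.monic hint, hdeg, fun h2 => ?_, hroots⟩
    apply two_notMem_traceVals (F := F) (r := r)
    refine hroots 2 ?_
    rw [show (2 : L) = ι 2 from (map_ofNat _ 2).symm, aeval_algebraMap_apply,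
      ← coe_aeval_eq_eval] at *
    rw [h2, map_zero]
  · rw [← card_traceVals hrF hr2,
      Finset.card_eq_sum_card_image (minpoly F) (traceVals F r), Finset.sum_const_nat (m := η)]
    · rfl
    · intro P hP
      obtain ⟨s, hs, rfl⟩ := Finset.mem_image.1 hP
      obtain ⟨hdeg, hroots⟩ := minpoly_traceVal hrF hr2 hk hη hs
      have hint : IsIntegral F s := Algebra.IsIntegral.isIntegral s
      have hirr := minpoly.irreducible hint
      have : (traceVals F r).filter (fun t => minpoly F t = minpoly F s) =
          ((minpoly F s).aroots L).toFinset := by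
        ext t
        rw [Finset.mem_filter, Multiset.mem_toFinset, mem_aroots]
        constructor
        · rintro ⟨-, ht⟩
          exact ⟨hirr.ne_zero, ht ▸ minpoly.aeval F t⟩
        · rintro ⟨-, ht⟩
          exact ⟨hroots t ht, (minpoly.eq_of_irreducible_of_monic hirr ht (minpoly.monic hint)).symm⟩
      rw [this, Multiset.toFinset_card_of_nodup (Polynomial.nodup_roots
        ((PerfectField.separable_of_irreducible hirr).map (f := ι))),
        IsAlgClosed.card_aroots_eq_natDegree, hdeg]

/-- The factors of `Q` attached to a choice of orbit multiplicities. -/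
noncomputable def traceFactors (F : Type*) [Field F] (r η n : ℕ)
    (m : Multiset (Option (traceOrbits F r))) : Multiset F[X] :=
  m.bind (fun o => o.elim (Multiset.replicate η (X - C 2)) (fun d => {(d : F[X])})) +
    Multiset.replicate (n % η) (X - C 2)

omit [Fintype F] hr in
theorem traceFactors_eq (η n j : ℕ) (m₀ : Multiset (traceOrbits F r)) :
    traceFactors F r η n (m₀.map some + Multiset.replicate j none) =
      m₀.map Subtype.val + Multiset.replicate (j * η + n % η) (X - C 2) := by
  rw [traceFactors, Multiset.add_bind, Multiset.bind_map, Multiset.replicate_add, ← add_assoc]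
  congr 2
  · induction m₀ using Multiset.induction_on with
    | empty => rfl
    | cons d m ih => simp [ih]
  · induction j with
    | zero => simp
    | succ j ih =>
      rw [Multiset.replicate_succ, Multiset.cons_bind, ih, Option.elim_none, add_one_mul,
        add_comm (j * η), Multiset.replicate_add]

omit [Fintype F] hr in
theorem exists_split_option {α : Type*} (m : Multiset (Option α)) :
    ∃ (m₀ : Multiset α) (j : ℕ), m = m₀.map some + Multiset.replicate j none := by
  induction m using Multiset.induction_on with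
  | empty => exact ⟨0, 0, rfl⟩
  | cons o m ih =>
    obtain ⟨m₀, j, rfl⟩ := ih
    rcases o with _ | d
    · exact ⟨m₀, j + 1, by rw [Multiset.replicate_succ, Multiset.add_cons]⟩
    · exact ⟨d ::ₘ m₀, j, by rw [Multiset.map_cons, Multiset.cons_add]⟩

/-- The classes with `r`-th power one correspond to orbit multiplicities. -/
theorem card_sp_classes_pow_eq_one (p : ℕ) [Fact p.Prime] [CharP F p]
    (hconj : ∀ g h : Matrix.symplecticGroup (Fin n) F, (orderOf g).Coprime p →
      (orderOf h).Coprime p → (g : Matrix (Fin n ⊕ Fin n) (Fin n ⊕ Fin n) F).charpoly =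
        (h : Matrix (Fin n ⊕ Fin n) (Fin n ⊕ Fin n) F).charpoly → IsConj g h)
    (hrp : r ≠ p) (hr2 : r ≠ 2) (hk : k = orderOf (qF : ZMod r))
    (hη : (Odd k ∧ η = k) ∨ (Even k ∧ 2 * η = k)) :
    Nat.card {c : ConjClasses (Matrix.symplecticGroup (Fin n) F) //
        ∃ g, ConjClasses.mk g = c ∧ g ^ r = 1} =
      (n / η + (traceOrbits F r).card).choose (traceOrbits F r).card := by
  classical
  have hrF : (r : F) ≠ 0 := fun h => hrp ((Nat.prime_dvd_prime_iff_eq (Fact.out : p.Prime)
    hr.out).mp ((CharP.cast_eq_zero_iff F p r).mp h)).symm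
  obtain ⟨hspec, hcard⟩ := traceOrbits_spec hrF hr2 hk hη
  have hη0 : 0 < η := Nat.pos_of_ne_zero fun h => by
    rw [h, mul_zero, mul_zero] at hcard
    have := hr.out.two_le
    omega
  have hcop : ∀ g : Matrix.symplecticGroup (Fin n) F, g ^ r = 1 → (orderOf g).Coprime p :=
    fun g hg => Nat.Coprime.coprime_dvd_left (orderOf_dvd_of_pow_eq_one hg)
      ((Nat.coprime_primes hr.out Fact.out).mpr hrp)
  obtain ⟨Φ, hΦ, hΦev⟩ := exists_classes_of_polys (n := n) (F := F) p
  have hfac : ∀ m : Multiset (Option (traceOrbits F r)), ∀ P ∈ traceFactors F r η n m,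
      Irreducible P ∧ P.Monic ∧ ∀ t : L, aeval t P = 0 → t = 2 ∨ t ∈ traceVals F r := by
    intro m P hP
    obtain ⟨m₀, j, rfl⟩ := exists_split_option m
    rw [traceFactors_eq, Multiset.mem_add, Multiset.mem_map] at hP
    rcases hP with ⟨d, -, rfl⟩ | h
    · obtain ⟨h1, h2, -, -, h5⟩ := hspec d d.2
      exact ⟨h1, h2, fun t ht => Or.inr (h5 t ht)⟩
    · rw [Multiset.eq_of_mem_replicate h]
      refine ⟨irreducible_X_sub_C 2, monic_X_sub_C 2, fun t ht => Or.inl ?_⟩
      simpa [sub_eq_zero, map_ofNat] using ht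
  have hsum : ∀ c : Multiset (traceOrbits F r),
      ((c.map Subtype.val).map natDegree).sum = Multiset.card c * η := by
    intro c
    induction c using Multiset.induction_on with
    | empty => simp
    | cons d c ih =>
      simp only [Multiset.map_cons, Multiset.sum_cons, Multiset.card_cons, ih,
        (hspec d.1 d.2).2.2.1]
      ring
  have hmon : ∀ m, (traceFactors F r η n m).prod.Monic := fun m => by
    rw [← Multiset.map_id (traceFactors F r η n m)]
    exact monic_multiset_prod_of_monic _ _ fun P hP => (hfac m P hP).2.1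
  have hdeg : ∀ s : Sym (Option (traceOrbits F r)) (n / η),
      (traceFactors F r η n s).prod.natDegree = n := by
    intro s
    obtain ⟨m₀, j, hs⟩ := exists_split_option (s : Multiset (Option (traceOrbits F r)))
    have hc := s.2
    change Multiset.card (s : Multiset (Option (traceOrbits F r))) = _ at hc
    rw [hs, Multiset.card_add, Multiset.card_map, Multiset.card_replicate] at hc
    rw [natDegree_multiset_prod_of_monic _ fun P hP => (hfac _ P hP).2.1, hs, traceFactors_eq,
      Multiset.map_add, Multiset.sum_add, Multiset.map_replicate, natDegree_X_sub_C,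
      Multiset.sum_replicate, smul_eq_mul, mul_one, hsum, ← add_assoc, ← add_mul, hc]
    exact Nat.div_add_mod' n η
  have hnf : ∀ s : Sym (Option (traceOrbits F r)) (n / η),
      normalizedFactors (traceFactors F r η n s).prod = traceFactors F r η n s := by
    intro s
    rw [normalizedFactors_prod_eq _ (fun P hP => (hfac _ P hP).1)]
    conv_rhs => rw [← Multiset.map_id (traceFactors F r η n s)]
    exact Multiset.map_congr rfl fun P hP => (hfac _ P hP).2.1.normalize_eq_self
  have hpow : ∀ s : Sym (Option (traceOrbits F r)) (n / η), ∃ g,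
      ConjClasses.mk g = (Φ ⟨_, hmon s, hdeg s⟩).1 ∧ g ^ r = 1 := by
    intro s
    obtain ⟨g, hg, hgp⟩ := (Φ ⟨_, hmon s, hdeg s⟩).2
    refine ⟨g, hg, ?_⟩
    have hN : ((orderOf g : ℕ) : F) ≠ 0 := fun h0 => (Fact.out : p.Prime).ne_one
      (Nat.eq_one_of_dvd_coprimes hgp ((CharP.cast_eq_zero_iff F p _).1 h0) dvd_rfl)
    set A := (g : Matrix (Fin n ⊕ Fin n) (Fin n ⊕ Fin n) F).map ι with hA
    have hAN : A ^ orderOf g = 1 := by
      rw [hA, ← RingHom.mapMatrix_apply, ← map_pow, ← SubmonoidClass.coe_pow, pow_orderOf_eq_one]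
      exact map_one _
    have hP0 : A.charpoly ≠ 0 := (Matrix.charpoly_monic A).ne_zero
    have h1 := pow_eq_one_of_roots A (m := r) (by rw [← map_natCast ι]; exact (map_ne_zero ι).2 hN)
      hAN hr.out.pos fun t ht => by
        have ht' := (mem_roots hP0).1 ht
        have ht0 : t ≠ 0 := by
          rintro rfl
          have := pow_eq_one_of_isRoot_charpoly A hAN ht'
          rw [zero_pow (orderOf_pos g).ne'] at this
          exact zero_ne_one this
        rw [IsRoot, hA, hΦev _ g hg t ht0, mul_eq_zero, or_iff_right (pow_ne_zero n ht0),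
          eval_map, ← aeval_def, map_multiset_prod, Multiset.prod_eq_zero_iff,
          Multiset.mem_map] at ht'
        obtain ⟨P, hP, hP0'⟩ := ht'
        rcases (hfac _ P hP).2.2 _ hP0' with h | h
        · have h' : t = 1 ∨ t = 1⁻¹ := (add_inv_eq_iff ht0 one_ne_zero).1 (by rw [h]; norm_num)
          rcases h' with rfl | rfl <;> simp
        · obtain ⟨z, hz, hzt⟩ := mem_traceVals.1 h
          rcases (add_inv_eq_iff ht0 (hz.ne_zero hr.out.ne_zero)).1 hzt.symm with rfl | rfl
          · exact hz.pow_eq_one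
          · rw [inv_pow, hz.pow_eq_one, inv_one]
    apply Subtype.ext
    rw [SubmonoidClass.coe_pow]
    refine Matrix.map_injective (RingHom.injective ι) ?_
    show (RingHom.mapMatrix ι) (_ ^ r) = (RingHom.mapMatrix ι) 1
    rw [map_pow, RingHom.mapMatrix_apply, ← hA, h1, map_one]
  have hbij : Function.Bijective (fun s : Sym (Option (traceOrbits F r)) (n / η) =>
      (⟨(Φ ⟨_, hmon s, hdeg s⟩).1, hpow s⟩ : {c : ConjClasses (Matrix.symplecticGroup (Fin n) F) //
        ∃ g, ConjClasses.mk g = c ∧ g ^ r = 1})) := by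
    constructor
    · intro s₁ s₂ h
      have h0 := congrArg Subtype.val h
      simp only at h0
      have h1 := congrArg Subtype.val (hΦ (Subtype.ext h0))
      have h2 := congrArg normalizedFactors h1
      simp only [hnf] at h2
      obtain ⟨a, i, ha⟩ := exists_split_option (s₁ : Multiset (Option (traceOrbits F r)))
      obtain ⟨b, j, hb⟩ := exists_split_option (s₂ : Multiset (Option (traceOrbits F r)))
      rw [ha, hb, traceFactors_eq, traceFactors_eq] at h2
      have h3 := congrArg (Multiset.filter (fun P => P ≠ X - C (2 : F))) h2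
      have hkeep : ∀ c : Multiset (traceOrbits F r), ∀ l : ℕ,
          (c.map Subtype.val + Multiset.replicate l (X - C (2 : F))).filter (fun P => P ≠ X - C (2 : F)) =
            c.map Subtype.val := by
        intro c l
        rw [Multiset.filter_add, Multiset.filter_eq_self.2, Multiset.filter_eq_nil.2, add_zero]
        · intro P hP; simp [Multiset.eq_of_mem_replicate hP]
        · intro P hP
          obtain ⟨d, -, rfl⟩ := Multiset.mem_map.1 hP
          intro hd
          exact (hspec d d.2).2.2.2.1 (by rw [hd]; simp)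
      rw [hkeep, hkeep] at h3
      obtain rfl := Multiset.map_injective Subtype.val_injective h3
      have hc1 := s₁.2
      have hc2 := s₂.2
      change Multiset.card (s₁ : Multiset (Option (traceOrbits F r))) = _ at hc1
      change Multiset.card (s₂ : Multiset (Option (traceOrbits F r))) = _ at hc2
      rw [ha, Multiset.card_add, Multiset.card_replicate] at hc1
      rw [hb, Multiset.card_add, Multiset.card_replicate] at hc2
      exact Sym.coe_injective (by rw [ha, hb, show i = j by omega])
    · rintro ⟨c, g, rfl, hg⟩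
      obtain ⟨Q, hQm, hQd, hQev⟩ := exists_poly_of_semisimple p hconj g (hcop g hg)
      set A := (g : Matrix (Fin n ⊕ Fin n) (Fin n ⊕ Fin n) F).map ι with hA
      have hAr : A ^ r = 1 := by
        rw [hA, ← RingHom.mapMatrix_apply, ← map_pow, ← SubmonoidClass.coe_pow, hg]
        exact map_one _
      have hfactor : ∀ P ∈ normalizedFactors Q, P = X - C 2 ∨ P ∈ traceOrbits F r := by
        intro P hP
        have hirr := irreducible_of_normalized_factor P hP
        have hPm : P.Monic := by
          rw [← normalize_normalized_factor P hP]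
          exact Polynomial.monic_normalize hirr.ne_zero
        obtain ⟨s, hs⟩ := IsAlgClosed.exists_aeval_eq_zero L P
          (Nat.pos_iff_ne_zero.1 hirr.natDegree_pos ∘ fun h => natDegree_eq_of_degree_eq_some h)
        have hQs : aeval s Q = 0 := by
          obtain ⟨c, hc⟩ := dvd_of_mem_normalizedFactors hP
          rw [hc, map_mul, hs, zero_mul]
        obtain ⟨t, ht⟩ := IsAlgClosed.exists_root (X ^ 2 - C s * X + 1 : L[X])
          (by rw [show (X ^ 2 - C s * X + 1 : L[X]) = C 1 * X ^ 2 + C (-s) * X + C 1 by simp; ring,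
            degree_quadratic one_ne_zero]
              decide)
        have ht' : t ^ 2 - s * t + 1 = 0 := by simpa using ht
        have ht0 : t ≠ 0 := by
          rintro rfl
          simp at ht'
        have hts : t + t⁻¹ = s := by
          field_simp
          linear_combination ht'
        have htr : t ^ r = 1 := pow_eq_one_of_isRoot_charpoly A hAr (by
          rw [IsRoot, hA, hQev t ht0, hts, eval_map, ← aeval_def, hQs, mul_zero])
        by_cases ht1 : t = 1
        · left
          have hs2 : s = ι 2 := by rw [map_ofNat, ← hts, ht1]; norm_num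
          rw [hs2, aeval_algebraMap_apply, map_eq_zero, coe_aeval_eq_eval] at hs
          exact (eq_of_monic_of_associated (monic_X_sub_C 2) hPm
            ((irreducible_X_sub_C (2 : F)).associated_of_dvd hirr (dvd_iff_isRoot.2 hs))).symm
        · right
          have hmem : s ∈ traceVals F r := mem_traceVals.2
            ⟨t, IsPrimitiveRoot.iff_orderOf.2 (orderOf_eq_prime htr ht1), hts⟩
          exact Finset.mem_image.2 ⟨s, hmem, (minpoly.eq_of_irreducible_of_monic hirr hs hPm).symm⟩
      set N := normalizedFactors Q with hN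
      set m₀ : Multiset (traceOrbits F r) :=
        ((N.filter (fun P => P ≠ X - C 2)).attach).map fun P => ⟨P.1,
          (hfactor P.1 (Multiset.mem_of_mem_filter P.2)).resolve_left (Multiset.of_mem_filter (p := fun P => P ≠ X - C 2) P.2)⟩
        with hm₀
      have hm₀v : m₀.map Subtype.val = N.filter (fun P => P ≠ X - C 2) := by
        rw [hm₀, Multiset.map_map]
        exact Multiset.attach_map_val _
      have hNsplit : N = m₀.map Subtype.val + Multiset.replicate (N.count (X - C 2)) (X - C 2) := by
        rw [hm₀v, ← Multiset.filter_eq', add_comm, Multiset.filter_add_not]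
      have hNprod : N.prod = Q := by
        rw [hN, prod_normalizedFactors_eq hQm.ne_zero, hQm.normalize_eq_self]
      have hdegQ : m₀.card * η + N.count (X - C 2) = n := by
        have hm : ∀ P ∈ N, P.Monic := fun P hP => by
          rw [← normalize_normalized_factor P hP]
          exact Polynomial.monic_normalize (irreducible_of_normalized_factor P hP).ne_zero
        have h1 := natDegree_multiset_prod_of_monic N hm
        rw [hNprod, hQd] at h1
        conv_rhs at h1 => rw [hNsplit]
        rw [Multiset.map_add, Multiset.sum_add, Multiset.map_replicate, natDegree_X_sub_C,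
          Multiset.sum_replicate, smul_eq_mul, mul_one, hsum] at h1
        exact h1.symm
      have hle : m₀.card ≤ n / η := (Nat.le_div_iff_mul_le hη0).2 (by omega)
      obtain ⟨j, hj⟩ := Nat.exists_eq_add_of_le hle
      refine ⟨Sym.mk (m₀.map some + Multiset.replicate j none) (by simp [hj]), ?_⟩
      apply Subtype.ext
      show (Φ ⟨_, _⟩).1 = ConjClasses.mk g
      obtain ⟨g', hg', hg'p⟩ := (Φ ⟨Q, hQm, hQd⟩).2
      have hQeq : (⟨_, hmon _, hdeg (Sym.mk (m₀.map some + Multiset.replicate j none) (by simp [hj]))⟩ :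
          {P : F[X] // P.Monic ∧ P.natDegree = n}) = ⟨Q, hQm, hQd⟩ := by
        refine Subtype.ext ?_
        show (traceFactors F r η n (m₀.map some + Multiset.replicate j none)).prod = Q
        rw [traceFactors_eq, ← hNprod]
        conv_rhs => rw [hNsplit]
        congr 3
        have := Nat.div_add_mod' n η
        rw [hj, add_mul] at this
        omega
      rw [hQeq, ← hg', ConjClasses.mk_eq_mk_iff_isConj]
      refine hconj _ _ hg'p (hcop g hg) (Polynomial.map_injective ι (RingHom.injective _) ?_)
      refine Polynomial.eq_of_infinite_eval_eq _ _ ((Set.finite_singleton (0 : L)).infinite_compl.mono ?_)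
      intro t ht
      have ht0 : t ≠ 0 := by simpa using ht
      show _ = _
      rw [← Matrix.charpoly_map, ← Matrix.charpoly_map, hΦev _ g' hg' t ht0, hQev t ht0]
  rw [← Nat.card_eq_of_bijective _ hbij, Nat.card_eq_fintype_card, Sym.card_sym_eq_choose,
    Fintype.card_option, Fintype.card_coe, show (traceOrbits F r).card + 1 + n / η - 1 =
      n / η + (traceOrbits F r).card by generalize n / η = b; omega]
  exact Nat.choose_symm_of_eq_add rfl

/-- The classes of elements of order `r`. -/
theorem card_sp_classes_orderOf (p : ℕ) [Fact p.Prime] [CharP F p]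
    (hconj : ∀ g h : Matrix.symplecticGroup (Fin n) F, (orderOf g).Coprime p →
      (orderOf h).Coprime p → (g : Matrix (Fin n ⊕ Fin n) (Fin n ⊕ Fin n) F).charpoly =
        (h : Matrix (Fin n ⊕ Fin n) (Fin n ⊕ Fin n) F).charpoly → IsConj g h)
    (hrp : r ≠ p) (hr2 : r ≠ 2) (hk : k = orderOf (qF : ZMod r))
    (hη : (Odd k ∧ η = k) ∨ (Even k ∧ 2 * η = k)) :
    Nat.card {c : ConjClasses (Matrix.symplecticGroup (Fin n) F) //
        ∃ g, ConjClasses.mk g = c ∧ orderOf g = r} =
      (n / η + (traceOrbits F r).card).choose (traceOrbits F r).card - 1 := by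
  rw [← card_sp_classes_pow_eq_one p hconj hrp hr2 hk hη]
  have e : {c : ConjClasses (Matrix.symplecticGroup (Fin n) F) | ∃ g, ConjClasses.mk g = c ∧ orderOf g = r}
      = {c | ∃ g, ConjClasses.mk g = c ∧ g ^ r = 1} \ {ConjClasses.mk 1} := by
    ext c
    constructor
    · rintro ⟨g, rfl, hg⟩
      refine ⟨⟨g, rfl, hg ▸ pow_orderOf_eq_one g⟩, fun h => ?_⟩
      have h1 : g = 1 := isConj_one_left.1 (ConjClasses.mk_eq_mk_iff_isConj.1 h)
      rw [h1, orderOf_one] at hg
      exact hr.out.one_lt.ne hg
    · rintro ⟨⟨g, rfl, hg⟩, h1⟩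
      exact ⟨g, rfl, orderOf_eq_prime hg fun h => h1 (by rw [h]; rfl)⟩
  have h1 := Set.ncard_sdiff_singleton_of_mem
    (show ConjClasses.mk 1 ∈ {c : ConjClasses (Matrix.symplecticGroup (Fin n) F) |
      ∃ g, ConjClasses.mk g = c ∧ g ^ r = 1} from ⟨1, rfl, one_pow r⟩)
  rw [← e] at h1
  exact (Nat.card_coe_set_eq _).trans (h1.trans (congrArg (· - 1) (Nat.card_coe_set_eq _).symm))

end CfsgLib.Spec53
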